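import Mathlib
import Cfsg.Agent.Perm.Conj
import Cfsg.Agent.Perm.Count
import Cfsg.Agent.Char.Indicator

/-! Symmetric designs: the basic counting facts. -/

set_option autoImplicit false

namespace Cfsg.Agent.PG

open MulAction Finset Matrix
open scoped Classical

/-- a symmetric design with parameters `(v, k, l)` -/
structure SD {P B : Type*} [Fintype P] [Fintype B] (I : P → B → Prop) (k l : ℕ) : Prop where
  card : Fintype.card P = Fintype.card B
  row : ∀ p, (univ.filter fun b => I p b).card = k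
  col : ∀ b, (univ.filter fun p => I p b).card = k
  pair : ∀ p q, p ≠ q → (univ.filter fun b => I p b ∧ I q b).card = l
  lt : l < k

section
variable {P B : Type*} [Fintype P] [Fintype B] {I : P → B → Prop} {k l : ℕ}

/-- the incidence matrix -/
noncomputable def incM (I : P → B → Prop) : Matrix P B ℚ := fun p b => if I p b then 1 else 0

omit [Fintype P] in
theorem incM_mul (I : P → B → Prop) (p q : P) :
    (incM I * (incM I)ᵀ) p q = ((univ.filter fun b => I p b ∧ I q b).card : ℚ) := by
  rw [Matrix.mul_apply, Finset.card_filter]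
  push_cast
  refine Finset.sum_congr rfl fun b _ => ?_
  by_cases h1 : I p b <;> by_cases h2 : I q b <;> simp [incM, h1, h2]

omit [Fintype B] in
theorem incM_mul' (I : P → B → Prop) (b c : B) :
    ((incM I)ᵀ * incM I) b c = ((univ.filter fun p => I p b ∧ I p c).card : ℚ) := by
  rw [Matrix.mul_apply, Finset.card_filter]
  push_cast
  refine Finset.sum_congr rfl fun p _ => ?_
  by_cases h1 : I p b <;> by_cases h2 : I p c <;> simp [incM, h1, h2]

namespace SD
variable (S : SD I k l)
include S

theorem mul_tr : incM I * (incM I)ᵀ =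
    ((k : ℚ) - l) • (1 : Matrix P P ℚ) + (l : ℚ) • Matrix.of (fun _ _ => (1 : ℚ)) := by
  ext p q
  rw [incM_mul]
  by_cases h : p = q
  · subst h; simp [S.row]
  · simp [S.pair p q h, h]

theorem J_mul {R : Type*} : (Matrix.of (fun _ _ => (1 : ℚ)) : Matrix R P ℚ) * incM I =
    (k : ℚ) • Matrix.of (fun _ _ => (1 : ℚ)) := by
  ext r b
  rw [Matrix.mul_apply]
  have := S.col b
  rw [Finset.card_filter] at this
  simp only [of_apply, one_mul, Matrix.smul_apply, smul_eq_mul, mul_one, incM]
  rw [← this]; push_cast; rfl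

theorem mul_J {R : Type*} : incM I * (Matrix.of (fun _ _ => (1 : ℚ)) : Matrix B R ℚ) =
    (k : ℚ) • Matrix.of (fun _ _ => (1 : ℚ)) := by
  ext p r
  rw [Matrix.mul_apply]
  have := S.row p
  rw [Finset.card_filter] at this
  simp only [of_apply, mul_one, Matrix.smul_apply, smul_eq_mul, incM]
  rw [← this]; push_cast; rfl

theorem eqn [Nonempty P] : (k : ℚ) * k = k - l + l * Fintype.card P := by
  obtain ⟨p⟩ := ‹Nonempty P›
  have h1 : incM I * (incM I)ᵀ * (Matrix.of (fun _ _ => (1 : ℚ)) : Matrix P P ℚ) =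
      ((k : ℚ) * k) • Matrix.of (fun _ _ => (1 : ℚ)) := by
    have h2 : (incM I)ᵀ * (Matrix.of (fun _ _ => (1 : ℚ)) : Matrix P P ℚ) =
        (k : ℚ) • Matrix.of (fun _ _ => (1 : ℚ)) := by
      have := congrArg Matrix.transpose (S.J_mul (R := P))
      rw [Matrix.transpose_mul] at this
      exact this
    rw [Matrix.mul_assoc, h2, Matrix.mul_smul, S.mul_J, smul_smul]
  rw [S.mul_tr] at h1
  have := congrFun (congrFun h1 p) p
  simp [Matrix.mul_apply, Finset.sum_add_distrib, ← Finset.mul_sum, Matrix.one_apply] at this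
  linarith

theorem exists_inv : ∃ C : Matrix B P ℚ, incM I * C = 1 ∧ C * incM I = 1 := by
  rcases isEmpty_or_nonempty P with hP | hP
  · haveI : IsEmpty B := Fintype.card_eq_zero_iff.1 (S.card ▸ Fintype.card_eq_zero)
    exact ⟨0, Subsingleton.elim _ _, Subsingleton.elim _ _⟩
  have h1 : (l : ℚ) < k := by exact_mod_cast S.lt
  have h0 : (0 : ℚ) ≤ l := by positivity
  have h2 : incM I * ((incM I)ᵀ * ((1 / ((k : ℚ) - l)) • (1 : Matrix P P ℚ) -
      ((l : ℚ) / ((k - l) * (k * k))) • Matrix.of (fun _ _ => (1 : ℚ)))) = 1 := by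
    rw [← Matrix.mul_assoc, S.mul_tr]
    have hJ : (Matrix.of (fun _ _ => (1 : ℚ)) : Matrix P P ℚ) *
        (Matrix.of (fun _ _ => (1 : ℚ)) : Matrix P P ℚ) =
        (Fintype.card P : ℚ) • Matrix.of (fun _ _ => (1 : ℚ)) := by
      ext; simp [Matrix.mul_apply]
    simp only [Matrix.add_mul, Matrix.mul_sub, Matrix.smul_mul, Matrix.mul_smul, Matrix.one_mul,
      Matrix.mul_one, hJ, smul_smul]
    have h3 := S.eqn
    have h4 : (k : ℚ) - l ≠ 0 := by linarith
    have h5 : (k : ℚ) ≠ 0 := by linarith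
    ext p q
    simp only [Matrix.sub_apply, Matrix.add_apply, Matrix.smul_apply, of_apply, smul_eq_mul, mul_one]
    field_simp
    linear_combination (l : ℚ) * h3
  exact ⟨_, h2, (Matrix.mul_eq_one_comm_of_card_eq _ _ _ S.card).1 h2⟩

theorem bpair (b c : B) (h : b ≠ c) : (univ.filter fun p => I p b ∧ I p c).card = l := by
  obtain ⟨C, h1, h2⟩ := S.exists_inv
  have h3 : (incM I)ᵀ * incM I = C * (incM I * (incM I)ᵀ) * incM I := by
    rw [← Matrix.mul_assoc, h2, Matrix.one_mul]
  have h4 : C * (Matrix.of (fun _ _ => (1 : ℚ)) : Matrix P P ℚ) * incM I =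
      Matrix.of (fun _ _ => (1 : ℚ)) := by
    rw [Matrix.mul_assoc, S.J_mul, ← S.mul_J, ← Matrix.mul_assoc, h2, Matrix.one_mul]
  rw [S.mul_tr, Matrix.mul_add, Matrix.add_mul, Matrix.mul_smul, Matrix.mul_smul, Matrix.smul_mul,
    Matrix.smul_mul, Matrix.mul_one, h2, h4] at h3
  have h5 := congrFun (congrFun h3 b) c
  rw [incM_mul'] at h5
  simp [h] at h5
  exact h5

/-- the dual design -/
theorem dual : SD (fun b p => I p b) k l :=
  ⟨S.card.symm, S.col, S.row, S.bpair, S.lt⟩

theorem fix_eq (σ : Equiv.Perm P) (τ : Equiv.Perm B) (h : ∀ p b, I (σ p) (τ b) ↔ I p b) :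
    (Function.fixedPoints σ).ncard = (Function.fixedPoints τ).ncard := by
  obtain ⟨C, h1, h2⟩ := S.exists_inv
  have h3 : σ.permMatrix ℚ * incM I = incM I * τ.permMatrix ℚ := by
    rw [PEquiv.toMatrix_toPEquiv_mul, PEquiv.mul_toMatrix_toPEquiv]
    ext p b
    simp only [submatrix_apply, id, incM]
    have := h p (τ.symm b)
    rw [Equiv.apply_symm_apply] at this
    simp only [this]
  have h4 : σ.permMatrix ℚ = incM I * τ.permMatrix ℚ * C := by
    rw [← h3, Matrix.mul_assoc, h1, Matrix.mul_one]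
  have h5 := Matrix.trace_permutation (R := ℚ) σ
  rw [h4, Matrix.trace_mul_comm, ← Matrix.mul_assoc, h2, Matrix.one_mul,
    Matrix.trace_permutation] at h5
  exact_mod_cast h5.symm

theorem fixedBy_eq {G : Type*} [Group G] [MulAction G P] [MulAction G B]
    (hI : ∀ (g : G) p b, I (g • p) (g • b) ↔ I p b) (g : G) :
    Nat.card (fixedBy P g) = Nat.card (fixedBy B g) :=
  S.fix_eq (MulAction.toPerm g) (MulAction.toPerm g) (hI g)

theorem faithful {G : Type*} [Group G] [MulAction G P] [MulAction G B] [FaithfulSMul G P]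
    (hI : ∀ (g : G) p b, I (g • p) (g • b) ↔ I p b) : FaithfulSMul G B := by
  have h : ∀ g : G, (∀ b : B, g • b = b) → g = 1 := by
    intro g hg
    have h1 := S.fixedBy_eq hI g
    have h2 : fixedBy B g = Set.univ := Set.eq_univ_of_forall hg
    rw [h2, Nat.card_univ, Nat.card_eq_fintype_card (α := B), ← S.card] at h1
    have h3 : fixedBy P g = Set.univ := by
      apply Set.eq_of_subset_of_ncard_le (Set.subset_univ _)
      rw [Set.ncard_univ, Nat.card_eq_fintype_card (α := P), ← h1]; rfl
    exact eq_of_smul_eq_smul (α := P) fun p => by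
      rw [one_smul]; exact (h3 ▸ Set.mem_univ p : p ∈ fixedBy P g)
  refine ⟨fun {a b} hab => ?_⟩
  have := h (b⁻¹ * a) fun c => by rw [mul_smul, hab, inv_smul_smul]
  exact (inv_mul_eq_one.1 this).symm

theorem two_trans {G : Type*} [Group G] [Finite G] [MulAction G P] [MulAction G B] [Nontrivial P]
    (hI : ∀ (g : G) p b, I (g • p) (g • b) ↔ I p b) [IsPretransitive G B]
    (h2 : IsMultiplyPretransitive G P 2) : IsMultiplyPretransitive G B 2 := by
  cases nonempty_fintype G
  haveI : IsPretransitive G P := isPretransitive_of_is_two_pretransitive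
  haveI : Nontrivial B := Fintype.one_lt_card_iff_nontrivial.1 (S.card ▸ Fintype.one_lt_card)
  rw [← Char.card_orbits_prod_eq_two_iff] at h2 ⊢
  have h3 := Perm.sum_card_fixedBy (G := G) (α := P × P)
  have h4 := Perm.sum_card_fixedBy (G := G) (α := B × B)
  simp only [Char.card_fixedBy_prod, S.fixedBy_eq hI] at h3 h4
  rw [h3, h2] at h4
  exact (Nat.eq_of_mul_eq_mul_right Nat.card_pos h4).symm

end SD
end

end Cfsg.Agent.PG
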