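import Mathlib
import Cfsg.Agent.PG.Design
import Cfsg.Agent.S0042
import Cfsg.Agent.H2.FrobQuot
import Cfsg.Agent.Comp2.Cores
import Cfsg.Agent.Core.Basic

/-! Ito's analysis of axial automorphisms of a symmetric design. -/

set_option autoImplicit false

namespace Cfsg.Agent.PG

open MulAction Finset
open scoped Classical

/-- a finite group with a nontrivial nilpotent normal subgroup has a nontrivial characteristic
abelian subgroup; version inside an ambient group -/
theorem exists_ab_char {G : Type*} [Group G] [Finite G] (M : Subgroup G) (K : Subgroup M)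
    [K.Normal] (hK : Group.IsNilpotent K) (h1 : K ≠ ⊥) :
    ∃ A : Subgroup G, A ≤ M ∧ A ≠ ⊥ ∧ (∀ a ∈ A, ∀ b ∈ A, a * b = b * a) ∧
      ∀ g ∈ Subgroup.normalizer (M : Set G), ∀ a ∈ A, g * a * g⁻¹ ∈ A := by
  have h2 : fittingSubgroup M ≠ ⊥ := fun h => h1 (eq_bot_iff.2 (h ▸ Comp2.le_fitting hK))
  haveI := Comp2.fitting_characteristic (G := M)
  haveI := Comp2.fitting_isNilpotent (G := M)
  haveI : Nontrivial (fittingSubgroup M) := (Subgroup.nontrivial_iff_ne_bot _).2 h2
  have h3 : Subgroup.center (fittingSubgroup M) ≠ ⊥ := by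
    intro h
    have := Group.IsNilpotent.center_ne_bot (G := fittingSubgroup M)
    exact this h
  let C : Subgroup M := (Subgroup.center (fittingSubgroup M)).map (fittingSubgroup M).subtype
  haveI : C.Characteristic := inferInstance
  refine ⟨C.map M.subtype, Subgroup.map_subtype_le _, fun h => h3 ?_, ?_, fun g hg a ha => ?_⟩
  · rw [Subgroup.map_eq_bot_iff_of_injective _ M.subtype_injective,
      Subgroup.map_eq_bot_iff_of_injective _ (Subgroup.subtype_injective _)] at h
    exact h
  · rintro _ ⟨_, ⟨a, ha, rfl⟩, rfl⟩ _ ⟨_, ⟨b, -, rfl⟩, rfl⟩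
    have := Subgroup.mem_center_iff.1 ha b
    exact (congrArg (fun x : fittingSubgroup M => ((x : M) : G)) this).symm
  · exact (Subgroup.mem_normalizer_iff.1 (Core.normalizer_le_normalizer_map_subtype M C hg) a).1 ha

/-- double counting of flags `(p, E)` with `p ∈ T` and `E ∈ U` -/
theorem dcount {P B : Type*} (I : P → B → Prop) (T : Finset P) (U : Finset B) :
    ∑ p ∈ T, (U.filter fun E => I p E).card = ∑ E ∈ U, (T.filter fun p => I p E).card := by
  simp only [Finset.card_filter]
  exact Finset.sum_comm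

section
variable {P B : Type*} {G : Type*} [Group G] [MulAction G P]

/-- the elements fixing every point of the block `b` -/
def Ax (G : Type*) [Group G] [MulAction G P] (I : P → B → Prop) (b : B) : Subgroup G where
  carrier := {g | ∀ p, I p b → g • p = p}
  one_mem' := fun p _ => one_smul _ p
  mul_mem' := fun {x y} hx hy p hp => by rw [mul_smul, hy p hp, hx p hp]
  inv_mem' := fun {x} hx p hp => by rw [inv_smul_eq_iff, hx p hp]

theorem Ax_conj [MulAction G B] {I : P → B → Prop} (hI : ∀ (g : G) p b, I (g • p) (g • b) ↔ I p b)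
    {b : B} {m : G} (hm : m ∈ Ax G I b) (g : G) : g * m * g⁻¹ ∈ Ax G I (g • b) := by
  intro p hp
  have : I (g⁻¹ • p) b := by rw [← hI g, smul_inv_smul]; exact hp
  rw [mul_smul, mul_smul, hm _ this, smul_inv_smul]

end

section
variable {P B : Type*} [Fintype P] [Fintype B] {I : P → B → Prop} {k l : ℕ}
  {G : Type*} [Group G] [MulAction G P] [MulAction G B]

namespace SD
variable (S : SD I k l)
include S

theorem sub_eq {b c : B} (h : ∀ p, I p b → I p c) : b = c := by
  by_contra hne
  have h1 := S.bpair b c hne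
  have h2 := S.col b
  have h3 : (univ.filter fun p => I p b ∧ I p c) = univ.filter fun p => I p b := by
    ext p; simp only [mem_filter, mem_univ, true_and]; exact ⟨fun h => h.1, fun h' => ⟨h', h p h'⟩⟩
  have := S.lt
  rw [h3] at h1; omega

theorem inter {b c D E : B} (h1 : b ≠ c) (h2 : D ≠ E) (h : ∀ p, I p b → I p c → I p D ∧ I p E) :
    ∀ p, I p D → I p E → I p b ∧ I p c := by
  have h3 : (univ.filter fun p => I p b ∧ I p c) = univ.filter fun p => I p D ∧ I p E := by
    apply Finset.eq_of_subset_of_card_le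
    · intro p hp
      simp only [mem_filter, mem_univ, true_and] at hp ⊢
      exact h p hp.1 hp.2
    · rw [S.bpair b c h1, S.bpair D E h2]
  intro p hD hE
  have : p ∈ univ.filter fun p => I p D ∧ I p E := by simp [hD, hE]
  rw [← h3] at this
  simpa using this

variable (hI : ∀ (g : G) p b, I (g • p) (g • b) ↔ I p b)
include hI

theorem ax_fix {b : B} {g : G} (hg : g ∈ Ax G I b) : g • b = b :=
  (S.sub_eq fun p hp => by rw [← hg p hp, hI]; exact hp).symm

theorem moved {b D : B} {g : G} (hg : g ∈ Ax G I b) (hD : g • D ≠ D) (p : P) (hp : I p D) :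
    I p (g • D) ↔ I p b := by
  have h1 : D ≠ b := fun h => hD (h ▸ S.ax_fix hI hg)
  have h2 : ∀ p, I p D → I p b → I p D ∧ I p (g • D) := fun p h3 h4 =>
    ⟨h3, by rw [← hg p h4, hI]; exact h3⟩
  exact ⟨fun h => (S.inter h1 hD.symm h2 p hp h).2, fun h => (h2 p hp h).2⟩

theorem fix_of_fix {b D : B} {g : G} (hg : g ∈ Ax G I b) {p : P} (hp : I p D) (hb : ¬ I p b)
    (h : g • p = p) : g • D = D := by
  by_contra hD
  exact hb ((S.moved hI hg hD p hp).1 (by rw [← h, hI]; exact hp))

omit S in
theorem fixed_through {D : B} {g : G} (h : g • D = D) {p : P} (hp : I p D) : I (g • p) D := by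
  rw [← h, hI]; exact hp

theorem ax_inter [FaithfulSMul G P] (hl : l + 2 ≤ k) {b c : B} (hbc : b ≠ c) {g : G}
    (hb : g ∈ Ax G I b) (hc : g ∈ Ax G I c) : g = 1 := by
  refine eq_of_smul_eq_smul (α := P) fun p => ?_
  rw [one_smul]
  by_contra hp
  have h1 : ((univ.filter fun D => I p D).filter fun D => g • D = D).card ≤ l := by
    rw [← S.pair p (g • p) (Ne.symm hp)]
    refine Finset.card_le_card fun D hD => ?_
    simp only [mem_filter, mem_univ, true_and] at hD ⊢
    exact ⟨hD.1, fixed_through hI hD.2 hD.1⟩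
  have h2 := Finset.card_filter_add_card_filter_not (s := univ.filter fun D => I p D)
    (fun D => g • D = D)
  rw [S.row] at h2
  obtain ⟨D, hD, E, hE, hDE⟩ := Finset.one_lt_card.1
    (show 1 < ((univ.filter fun D => I p D).filter fun D => ¬ g • D = D).card by omega)
  simp only [mem_filter, mem_univ, true_and] at hD hE
  have key : ∀ D : B, g • D ≠ D → ∀ q, I q b → I q c → I q D := by
    intro D hD q h3 h4
    have h5 : D ≠ b := fun h => hD (h ▸ S.ax_fix hI hb)
    refine (S.inter h5 hbc (fun r h6 h7 => ⟨h7, ?_⟩) q h3 h4).1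
    exact (S.moved hI hc hD r h6).1 ((S.moved hI hb hD r h6).2 h7)
  have := S.inter hbc hDE (fun q h3 h4 => ⟨key D hD.2 q h3 h4, key E hE.2 q h3 h4⟩) p hD.1 hE.1
  exact hp (hb p this.1)

theorem two_off [FaithfulSMul G P] (hl : l + 2 ≤ k) {b : B} {g : G} (hb : g ∈ Ax G I b) {p q : P}
    (hpq : p ≠ q) (hp : ¬ I p b) (hq : ¬ I q b) (h1 : g • p = p) (h2 : g • q = q) : g = 1 := by
  obtain ⟨D, hD, hD'⟩ : ∃ D, I p D ∧ ¬ I q D := by
    by_contra h
    push Not at h
    exact hpq (S.dual.sub_eq h)
  refine S.ax_inter hI hl (fun h : b = D => hp (h ▸ hD)) hb fun r hr => ?_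
  by_contra h
  have h3 : r ≠ p := fun e => h (e ▸ h1)
  have h4 : r ≠ q := fun e => h (e ▸ h2)
  have h5 : ∀ E, I r E → I (g • r) E → I r E ∧ I q E :=
    S.dual.inter h4 (Ne.symm h) fun E h6 h7 =>
      ⟨h6, fixed_through hI (S.fix_of_fix hI hb h7 hq h2) h6⟩
  exact hD' (h5 D hr (fixed_through hI (S.fix_of_fix hI hb hD hp h1) hr)).2

theorem card_fixed {g : G} :
    (univ.filter fun p : P => g • p = p).card = (univ.filter fun D : B => g • D = D).card := by
  have := S.fixedBy_eq hI g
  rw [Nat.card_eq_card_toFinset, Nat.card_eq_card_toFinset] at this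
  convert this using 2 <;> ext <;> simp

theorem exists_fixed (hk : 2 ≤ k) {b : B} {g : G} (hb : g ∈ Ax G I b) :
    ∃ D, D ≠ b ∧ g • D = D := by
  have h1 : k ≤ (univ.filter fun p : P => g • p = p).card := by
    rw [← S.col b]
    refine Finset.card_le_card fun p hp => ?_
    simp only [mem_filter, mem_univ, true_and] at hp ⊢
    exact hb p hp
  rw [S.card_fixed hI] at h1
  obtain ⟨D, hD, hne⟩ := Finset.exists_mem_ne
    (show 1 < (univ.filter fun D : B => g • D = D).card by omega) b
  exact ⟨D, hne, by simpa using hD⟩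

theorem nfix {b : B} {g : G} (hb : g ∈ Ax G I b) (hs : ∀ p, ¬ I p b → g • p ≠ p) {p : P}
    (hp : ¬ I p b) : ((univ.filter fun D : B => g • D = D).filter fun E => I p E).card = l := by
  haveI : Nonempty P := ⟨p⟩
  have h0 : (univ.filter fun p : P => g • p = p) = univ.filter fun p => I p b := by
    ext q; simp only [mem_filter, mem_univ, true_and]
    exact ⟨fun h => by by_contra h'; exact hs q h' h, hb q⟩
  have h1 : (univ.filter fun D : B => g • D = D).card = k := by
    rw [← S.card_fixed hI, h0, S.col]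
  have h2 := dcount I (univ.filter fun p => ¬ I p b) (univ.filter fun D : B => g • D = D)
  have h3 : ∑ E ∈ univ.filter (fun D : B => g • D = D),
      ((univ.filter fun p => ¬ I p b).filter fun p => I p E).card = (k - 1) * (k - l) := by
    have hm : b ∈ univ.filter (fun D : B => g • D = D) := by simpa using S.ax_fix hI hb
    rw [← Finset.add_sum_erase _ _ hm, Finset.sum_congr rfl (g := fun _ => k - l)]
    · rw [Finset.sum_const, Finset.card_erase_of_mem hm, h1, smul_eq_mul]
      rw [Finset.card_eq_zero.2, zero_add]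
      ext q; simp
    · intro E hE
      have h4 := Finset.card_filter_add_card_filter_not (s := univ.filter fun p => I p E)
        (fun p => I p b)
      rw [S.col, Finset.filter_filter, S.bpair E b (Finset.ne_of_mem_erase hE),
        Finset.filter_comm] at h4
      omega
  have h4 : ∀ q ∈ univ.filter (fun p => ¬ I p b),
      ((univ.filter fun D : B => g • D = D).filter fun E => I q E).card ≤ l := by
    intro q hq
    rw [← S.pair q (g • q) (Ne.symm (hs q (by simpa using hq)))]
    refine Finset.card_le_card fun D hD => ?_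
    simp only [mem_filter, mem_univ, true_and] at hD ⊢
    exact ⟨hD.2, fixed_through hI hD.1 hD.2⟩
  have h5 : ∑ q ∈ univ.filter (fun p => ¬ I p b), l = (k - 1) * (k - l) := by
    have h6 := Finset.card_filter_add_card_filter_not (s := (univ : Finset P)) (fun p => I p b)
    rw [S.col, Finset.card_univ] at h6
    rw [Finset.sum_const, smul_eq_mul]
    have h7 := S.eqn
    have h8 := S.lt
    rw [← h6] at h7
    have h9 : (((univ.filter fun p => ¬ I p b).card * l : ℕ) : ℚ) = ((k - 1) * (k - l) : ℕ) := by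
      push_cast [Nat.cast_sub h8.le, Nat.cast_sub (show 1 ≤ k by omega)] at h7 ⊢
      linear_combination -h7
    exact_mod_cast h9
  rw [h3, ← h5] at h2
  exact (Finset.sum_eq_sum_iff_of_le h4).1 h2 p (by simpa using hp)

theorem fix_dep {b : B} {g : G} (hb : g ∈ Ax G I b) (hs : ∀ p, ¬ I p b → g • p ≠ p) {D E : B}
    (hD : D ≠ b) (hE : E ≠ b) (h : ∀ p, I p b → (I p D ↔ I p E)) (hf : g • D = D) : g • E = E := by
  by_contra hne
  have h0 : (univ.filter fun p : P => g • p = p) = univ.filter fun p => I p b := by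
    ext q; simp only [mem_filter, mem_univ, true_and]
    exact ⟨fun h => by by_contra h'; exact hs q h' h, hb q⟩
  have h1 : (univ.filter fun D : B => g • D = D).card = k := by
    rw [← S.card_fixed hI, h0, S.col]
  set F := univ.filter fun D : B => g • D = D with hF
  have key : ∀ C : B, C ≠ b → ∑ p ∈ univ.filter (fun p => I p C), (F.filter fun E => I p E).card =
      ∑ p ∈ (univ.filter (fun p => I p C)).filter (fun p => I p b),
        (F.filter fun E => I p E).card + (k - l) * l := by
    intro C hC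
    rw [← Finset.sum_filter_add_sum_filter_not _ (fun p => I p b)]
    congr 1
    rw [Finset.sum_congr rfl (g := fun _ => l), Finset.sum_const, smul_eq_mul]
    · have h4 := Finset.card_filter_add_card_filter_not (s := univ.filter fun p => I p C)
        (fun p => I p b)
      rw [S.col, Finset.filter_filter, S.bpair C b hC] at h4
      congr 1; omega
    · intro q hq
      exact S.nfix hI hb hs (Finset.mem_filter.1 hq).2
  have h2 := key D hD
  have h3 := key E hE
  have h4 : (univ.filter (fun p => I p D)).filter (fun p => I p b) =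
      (univ.filter (fun p => I p E)).filter (fun p => I p b) := by
    ext p; simp only [mem_filter, mem_univ, true_and]
    exact ⟨fun h' => ⟨(h p h'.2).1 h'.1, h'.2⟩, fun h' => ⟨(h p h'.2).2 h'.1, h'.2⟩⟩
  rw [h4, ← h3, dcount I _ F, dcount I _ F] at h2
  have hm : D ∈ F := by simpa [hF] using hf
  rw [← Finset.add_sum_erase _ _ hm, Finset.sum_congr rfl (g := fun _ => l),
    Finset.sum_congr (s₂ := F) rfl (g := fun _ => l), Finset.sum_const, Finset.sum_const,
    Finset.card_erase_of_mem hm, h1, Finset.filter_filter] at h2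
  · simp only [and_self, S.col, smul_eq_mul] at h2
    have := S.lt
    obtain ⟨k', rfl⟩ : ∃ k', k = k' + 1 := ⟨k - 1, by omega⟩
    simp only [Nat.add_sub_cancel, add_mul] at h2
    omega
  · intro C hC
    rw [Finset.filter_filter, S.bpair]
    rintro rfl
    exact hne (by simpa [hF] using hC)
  · intro C hC
    rw [Finset.filter_filter, S.bpair _ _ (Finset.ne_of_mem_erase hC).symm]

theorem ito [Finite G] [FaithfulSMul G P] (h2 : IsMultiplyPretransitive G B 2) (hk : 2 ≤ k)
    (hl : l + 2 ≤ k) (hv : k + 1 < Fintype.card P) {b : B} (hb : Ax G I b ≠ ⊥) :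
    ∃ A : Subgroup G, A ≤ Ax G I b ∧ A ≠ ⊥ ∧ (∀ x ∈ A, ∀ y ∈ A, x * y = y * x) ∧
      ∀ g ∈ stabilizer G b, ∀ a ∈ A, g * a * g⁻¹ ∈ A := by
  have htr : ∀ D E : B, D ≠ b → E ≠ b → ∃ g : G, g • b = b ∧ g • D = E := by
    intro D E hD hE
    exact (is_two_pretransitive_iff.1 h2) hD.symm hE.symm
  have hnorm : stabilizer G b ≤ Subgroup.normalizer (Ax G I b : Set G) := by
    intro g hg
    refine Subgroup.mem_normalizer_fintype fun n hn => ?_
    have := Ax_conj hI hn g
    rwa [show g • b = b from hg] at this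
  suffices h : ∃ K : Subgroup (Ax G I b), K.Normal ∧ Group.IsNilpotent K ∧ K ≠ ⊥ by
    obtain ⟨K, _, h3, h4⟩ := h
    obtain ⟨A, h5, h6, h7, h8⟩ := exists_ab_char _ K h3 h4
    exact ⟨A, h5, h6, h7, fun g hg => h8 g (hnorm hg)⟩
  by_cases hs : ∀ g ∈ Ax G I b, g ≠ 1 → ∀ p, ¬ I p b → g • p ≠ p
  · -- semiregular case
    haveI := S.faithful hI
    obtain ⟨g, hg1⟩ := (Subgroup.ne_bot_iff_exists_ne_one).1 hb
    have hg1' : (g : G) ≠ 1 := fun h => hg1 (Subtype.ext h)
    obtain ⟨C, hC, hgC⟩ := S.exists_fixed hI hk g.2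
    have hs' : ∀ D : B, ∀ g ∈ Ax G I D, g ≠ 1 → ∀ p, ¬ I p D → g • p ≠ p := by
      intro D x hx hx1 p hp h
      haveI : IsPretransitive G B := isPretransitive_of_is_two_pretransitive
      obtain ⟨t, rfl⟩ := exists_smul_eq G D b
      refine hs _ (Ax_conj hI hx t) (fun h => hx1 (by simpa using h)) (t • p)
        (by rwa [hI]) ?_
      rw [mul_smul, mul_smul, inv_smul_smul, h]
    have hdep : ∀ (c : B) (x : G), x ∈ Ax G I c → ∀ D E : B, D ≠ c → E ≠ c →
        (∀ p, I p c → (I p D ↔ I p E)) → x • D = D → x • E = E := by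
      intro c x hx D E hD hE h hf
      by_cases hx1 : x = 1
      · rw [hx1, one_smul]
      · exact S.fix_dep hI hx (hs' c x hx hx1) hD hE h hf
    -- elements of `Ax b` fixing `D` commute with elements of `Ax D` fixing `b`
    have hcomm : ∀ D : B, D ≠ b → ∀ u ∈ Ax G I b, u • D = D → ∀ v ∈ Ax G I D, v • b = b →
        u * v = v * u := by
      intro D hD u hu huD v hv hvb
      have h3 : u * v * u⁻¹ * v⁻¹ = 1 := by
        refine S.ax_inter hI hl hD.symm ?_ ?_
        · have := Ax_conj hI (Subgroup.inv_mem _ hu) v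
          rw [hvb] at this
          have := Subgroup.mul_mem _ hu this
          simpa [mul_assoc] using this
        · have := Ax_conj hI hv u
          rw [huD] at this
          exact Subgroup.mul_mem _ this (Subgroup.inv_mem _ hv)
      rw [mul_inv_eq_one, mul_inv_eq_iff_eq_mul] at h3
      exact h3
    have hmv : ∀ n ∈ Ax G I b, ∀ p, I p b → (I p C ↔ I p (n • C)) := by
      intro n hn p hp
      conv_rhs => rw [← hn p hp, hI]
    have hne : ∀ n ∈ Ax G I b, n • C ≠ b := by
      intro n hn h
      rw [← S.ax_fix hI hn, smul_left_cancel_iff] at h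
      exact hC h
    obtain ⟨n, hn, hnC⟩ : ∃ n ∈ Ax G I b, n • C ≠ C := by
      by_contra h
      push Not at h
      refine hg1' (eq_of_smul_eq_smul (α := B) fun D => ?_)
      rw [one_smul]
      by_cases hD : D = b
      · rw [hD]; exact S.ax_fix hI g.2
      · obtain ⟨t, ht, rfl⟩ := htr C D hC hD
        have h3 := Ax_conj hI g.2 t⁻¹
        rw [show t⁻¹ • b = b from inv_smul_eq_iff.2 ht.symm] at h3
        have h4 := h _ h3
        rw [inv_inv, mul_smul, mul_smul, inv_smul_eq_iff] at h4
        exact h4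
    let U : Subgroup G := Ax G I b ⊓ stabilizer G C
    let V : Subgroup G := Ax G I C ⊓ stabilizer G b
    have hUV : Nat.card U ≤ Nat.card V := by
      obtain ⟨s, hs1, hs2⟩ := (is_two_pretransitive_iff.1 h2) hC.symm hC
      refine Nat.card_le_card_of_injective
        (fun u : U => (⟨s * u * s⁻¹, hs1 ▸ Ax_conj hI u.2.1 s, ?_⟩ : V)) ?_
      · have : (u : G) • C = C := u.2.2
        show _ • b = b
        rw [mul_smul, mul_smul, ← hs2, inv_smul_smul, this]
      · intro x y h
        have h3 : s * x * s⁻¹ = s * y * s⁻¹ := congrArg Subtype.val h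
        exact Subtype.ext (mul_left_cancel (mul_right_cancel h3))
    have hw : ∀ v ∈ V, n * v * n⁻¹ ∈ Ax G I (n • C) ∧ (n * v * n⁻¹) • b = b := by
      intro v hv
      refine ⟨Ax_conj hI hv.1 n, ?_⟩
      have h3 : v • b = b := hv.2
      rw [mul_smul, mul_smul, S.ax_fix hI (Subgroup.inv_mem _ hn), h3, S.ax_fix hI hn]
    have hf : ∀ v ∈ V, n * v * n⁻¹ * v⁻¹ ∈ U := by
      intro v hv
      constructor
      · have := Ax_conj hI (Subgroup.inv_mem _ hn) v
        rw [show v • b = b from hv.2] at this
        have := Subgroup.mul_mem _ hn this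
        simpa [mul_assoc] using this
      · show _ • C = C
        rw [mul_smul, S.ax_fix hI (Subgroup.inv_mem _ hv.1)]
        refine hdep _ _ (hw v hv).1 b C (hne n hn).symm hnC.symm (fun p hp => ?_) (hw v hv).2
        constructor
        · intro h; exact (hmv n hn p h).2 hp
        · intro h; exact (S.moved hI hn hnC p h).1 hp
    have hinj : Function.Injective fun v : V => (⟨_, hf v v.2⟩ : U) := by
      intro x y h
      have h3 : n * x * n⁻¹ * (x : G)⁻¹ = n * y * n⁻¹ * (y : G)⁻¹ := congrArg Subtype.val h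
      have h4 : n * ((y⁻¹ * x : V) : G) * n⁻¹ = (y⁻¹ * x : V) := by
        push_cast
        calc n * ((y : G)⁻¹ * x) * n⁻¹
            = (n * y * n⁻¹)⁻¹ * (n * x * n⁻¹ * (x : G)⁻¹) * x := by group
          _ = _ := by rw [h3]; group
      have h5 := S.ax_inter hI hl hnC (h4 ▸ (hw _ (y⁻¹ * x).2).1) (y⁻¹ * x).2.1
      have h6 : y⁻¹ * x = 1 := Subtype.ext h5
      exact (inv_mul_eq_one.1 h6).symm
    have hsurj := (Nat.bijective_iff_injective_and_card _).2
      ⟨hinj, le_antisymm (Nat.card_le_card_of_injective _ hinj) hUV⟩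
    have hab : ∀ x ∈ U, ∀ y ∈ U, x * y = y * x := by
      intro x hx y hy
      obtain ⟨v, hv⟩ := hsurj.2 ⟨y, hy⟩
      have h3 : y = n * v * n⁻¹ * (v : G)⁻¹ := (congrArg Subtype.val hv).symm
      have h4 := hcomm C hC x hx.1 hx.2 _ (Subgroup.inv_mem _ v.2).1 (Subgroup.inv_mem _ v.2).2
      have h5 := hcomm (n • C) (hne n hn) x hx.1
        (hdep b x hx.1 C _ hC (hne n hn) (hmv n hn) hx.2) _ (hw v v.2).1 (hw v v.2).2
      rw [h3, ← mul_assoc, h5, mul_assoc, h4, ← mul_assoc]
    refine ⟨U.subgroupOf (Ax G I b), ⟨fun u hu m => ?_⟩, ?_, fun h => ?_⟩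
    · refine ⟨(m * u * m⁻¹).2, ?_⟩
      have h3 : ((m : G) * u * (m : G)⁻¹) • ((m : G) • C) = (m : G) • C := by
        rw [mul_smul, mul_smul, inv_smul_smul, show (u : G) • C = C from hu.2]
      exact hdep b _ (m * u * m⁻¹).2 _ C (hne m m.2) hC (fun p hp => (hmv m m.2 p hp).symm) h3
    · letI : CommGroup (U.subgroupOf (Ax G I b)) :=
        { mul_comm := fun x y => Subtype.ext (Subtype.ext (hab _ x.2 _ y.2)) }
      infer_instance
    · have : g ∈ U.subgroupOf (Ax G I b) := ⟨g.2, hgC⟩
      rw [h] at this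
      exact hg1 this
  · push Not at hs
    obtain ⟨g, hg, hg1, p, hp, hgp⟩ := hs
    have hF : IsFrobeniusComplement (stabilizer (Ax G I b) p) := by
      refine ⟨fun h => ?_, fun h => ?_, fun m hm => ?_⟩
      · have : (⟨g, hg⟩ : Ax G I b) ∈ stabilizer (Ax G I b) p := hgp
        rw [h] at this
        exact hg1 (congrArg Subtype.val this)
      · have h3 : ∀ m ∈ Ax G I b, m • p = p := fun m hm =>
          (h ▸ Subgroup.mem_top _ : (⟨m, hm⟩ : Ax G I b) ∈ stabilizer (Ax G I b) p)
        have h4 : ∀ t : G, t • b = b → t • p = p := by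
          intro t ht
          by_contra h5
          refine hg1 (S.two_off hI hl hg h5 (by rw [← ht, hI]; exact hp) hp ?_ hgp)
          have h6 := Ax_conj hI hg t⁻¹
          rw [show t⁻¹ • b = b from inv_smul_eq_iff.2 ht.symm] at h6
          have h7 := h3 _ h6
          rw [inv_inv, mul_smul, mul_smul, inv_smul_eq_iff] at h7
          exact h7
        have h5 := S.row p
        obtain ⟨D, hD⟩ := Finset.card_pos.1
          (show 0 < (univ.filter fun b => I p b).card by omega)
        have hD' : I p D := by simpa using hD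
        have h6 : univ.erase b ⊆ univ.filter fun b => I p b := by
          intro E hE
          obtain ⟨t, ht, rfl⟩ := htr D E (fun e => hp (e ▸ hD')) (Finset.ne_of_mem_erase hE)
          simp only [mem_filter, mem_univ, true_and]
          rw [← h4 t ht, hI]; exact hD'
        have h7 := Finset.card_le_card h6
        rw [Finset.card_erase_of_mem (mem_univ _), Finset.card_univ, ← S.card] at h7
        omega
      · refine eq_bot_iff.2 fun x hx => ?_
        obtain ⟨h3, h4⟩ := hx
        rw [Subgroup.mem_bot]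
        obtain ⟨y, hy, rfl⟩ := h4
        have hy' : (y : G) • p = p := hy
        refine Subtype.ext (S.two_off hI hl (Subtype.prop _) (p := p) (q := (m : G) • p)
          (Ne.symm hm) hp ?_ h3 ?_)
        · intro h5
          exact hp ((hI m p b).1 (by rw [S.ax_fix hI m.2]; exact h5))
        · show ((m : G) * y * (m : G)⁻¹) • (m : G) • p = _
          rw [mul_smul, mul_smul, inv_smul_smul, hy']
    obtain ⟨K, h3, h4, h5⟩ := S0042.result _ hF
    exact ⟨K, h4, h5, H2.Frob.ne_bot_of_coe_eq hF h3⟩

end SD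
end

end Cfsg.Agent.PG
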