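import Mathlib
import Cfsg.Agent.PG.Ito
import Cfsg.Agent.PG.ONan

/-! Ito's theorem on doubly transitive groups with an intransitive subgroup of index the degree. -/

set_option autoImplicit false

open scoped Classical

namespace Cfsg.Agent.PG

open MulAction Finset
open scoped LinearAlgebra.Projectivization

theorem card_filter_smul {G X : Type*} [Group G] [MulAction G X] [Fintype X] (g : G)
    {p q : X → Prop} [DecidablePred p] [DecidablePred q] (h : ∀ x, q (g • x) ↔ p x) :
    (univ.filter p).card = (univ.filter q).card :=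
  Finset.card_bijective (fun x => g • x) (MulAction.bijective g) fun x => by simp [h]

theorem sd_of_action {P B G : Type*} [Fintype P] [Fintype B] [Group G] [MulAction G P]
    [MulAction G B] {I : P → B → Prop} (hI : ∀ (g : G) p b, I (g • p) (g • b) ↔ I p b)
    [IsPretransitive G B] (h2 : IsMultiplyPretransitive G P 2)
    (hc : Fintype.card P = Fintype.card B) (b : B) {k : ℕ}
    (hk : (univ.filter fun p => I p b).card = k) (h0 : 2 ≤ k) (hv : k + 1 < Fintype.card P) :
    ∃ l, SD I k l ∧ l + 2 ≤ k := by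
  haveI : IsPretransitive G P := isPretransitive_of_is_two_pretransitive
  obtain ⟨p, q, hpq⟩ := Fintype.exists_pair_of_one_lt_card (show 1 < Fintype.card P by omega)
  haveI : Nonempty P := ⟨p⟩
  have hcol : ∀ c, (univ.filter fun p => I p c).card = k := by
    intro c
    obtain ⟨g, rfl⟩ := exists_smul_eq G b c
    rw [← hk]; exact (card_filter_smul g fun x => hI g x b).symm
  have hr : ∀ x, (univ.filter fun c => I x c).card = (univ.filter fun c => I p c).card := by
    intro x
    obtain ⟨g, rfl⟩ := exists_smul_eq G p x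
    exact (card_filter_smul g fun c => hI g p c).symm
  have hrow : ∀ x, (univ.filter fun c => I x c).card = k := by
    intro x
    have h3 := dcount I univ univ
    simp only [hr, hcol, sum_const, card_univ, smul_eq_mul, hc] at h3
    rw [hr]
    exact Nat.eq_of_mul_eq_mul_left (by omega) h3
  have hpair : ∀ x y, x ≠ y → (univ.filter fun c => I x c ∧ I y c).card =
      (univ.filter fun c => I p c ∧ I q c).card := by
    intro x y hxy
    obtain ⟨g, rfl, rfl⟩ := (is_two_pretransitive_iff.1 h2) hpq hxy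
    symm
    exact card_filter_smul g fun c => and_congr (hI g p c) (hI g q c)
  have hlt : (univ.filter fun c => I p c ∧ I q c).card < k := by
    by_contra h
    obtain ⟨D, hD⟩ := Finset.card_pos.1
      (show 0 < (univ.filter fun c => I p c).card by rw [hrow]; omega)
    have hD' : I p D := by simpa using hD
    have h3 : (univ.filter fun x => I x D) = univ := by
      refine Finset.eq_univ_of_forall fun x => ?_
      simp only [mem_filter, mem_univ, true_and]
      by_cases hx : p = x
      · exact hx ▸ hD'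
      · have h4 : (univ.filter fun c => I p c ∧ I x c) = univ.filter fun c => I p c := by
          apply Finset.eq_of_subset_of_card_le
          · intro c hc; simp only [mem_filter, mem_univ, true_and] at hc ⊢; exact hc.1
          · rw [hrow, hpair p x hx]; omega
        rw [← h4] at hD
        exact (Finset.mem_filter.1 hD).2.2
    have h4 := hcol D
    rw [h3, card_univ] at h4
    omega
  have S : SD I k _ := ⟨hc, hrow, hcol, hpair, hlt⟩
  refine ⟨_, S, ?_⟩
  have h3 := S.eqn
  by_contra h
  generalize (univ.filter fun c => I p c ∧ I q c).card = l at *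
  obtain rfl : k = l + 1 := by omega
  push_cast at h3
  have h4 : (l : ℚ) * (l + 2) = l * Fintype.card P := by linear_combination h3
  have h5 : (l : ℚ) ≠ 0 := by exact_mod_cast (show l ≠ 0 by omega)
  have h6 : ((l + 2 : ℕ) : ℚ) = Fintype.card P := by push_cast; exact mul_left_cancel₀ h5 h4
  have h7 : l + 2 = Fintype.card P := by exact_mod_cast h6
  omega

theorem ito_psl {G Ω : Type*} [Group G] [Finite G] [MulAction G Ω] [FaithfulSMul G Ω] [Finite Ω]
    (h2 : IsMultiplyPretransitive G Ω 2) (H : Subgroup G) (hidx : H.index = Nat.card Ω)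
    (hnt : ¬ IsPretransitive H Ω) (hfix : ∀ a : Ω, ∃ h : H, h • a ≠ a)
    (hunf : ∃ a : Ω, ∃ h : H, h ≠ 1 ∧ ∀ b ∈ orbit H a, h • b = b) :
    ∃ (m : ℕ) (F : Type) (_ : Field F) (_ : Fintype F), 2 ≤ m ∧
      Nat.card Ω = (Fintype.card F ^ (m + 1) - 1) / (Fintype.card F - 1) ∧
      ∃ N : Subgroup G, N.Normal ∧
        Nonempty (N ≃* Matrix.ProjectiveSpecialLinearGroup (Fin (m + 1)) F) ∧
        Subgroup.centralizer (N : Set G) = ⊥ := by
  obtain ⟨a, h, h1, hh⟩ := hunf
  cases nonempty_fintype Ω
  cases nonempty_fintype (G ⧸ H)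
  let I : Ω → G ⧸ H → Prop := fun p c => ∃ g : G, (g : G ⧸ H) = c ∧ g⁻¹ • p ∈ orbit H a
  have hI : ∀ (g : G) p b, I (g • p) (g • b) ↔ I p b := by
    intro g p b
    constructor
    · rintro ⟨t, ht, ht'⟩
      refine ⟨g⁻¹ * t, ?_, ?_⟩
      · rw [← smul_left_cancel_iff g, ← ht]
        show ((g * (g⁻¹ * t) : G) : G ⧸ H) = t
        rw [mul_inv_cancel_left]
      · rwa [mul_inv_rev, inv_inv, mul_smul]
    · rintro ⟨t, rfl, ht'⟩
      refine ⟨g * t, rfl, ?_⟩
      rwa [mul_inv_rev, mul_smul, inv_smul_smul]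
  have hb : ∀ p, I p ((1 : G) : G ⧸ H) ↔ p ∈ orbit H a := by
    intro p
    constructor
    · rintro ⟨t, ht, ht'⟩
      have h3 : t ∈ H := by simpa using QuotientGroup.eq.1 ht.symm
      have := (mem_orbit_smul (⟨t, h3⟩ : H) (t⁻¹ • p))
      have h4 : p ∈ orbit H (t⁻¹ • p) := ⟨⟨t, h3⟩, smul_inv_smul t p⟩
      exact (orbit_eq_iff.2 ht') ▸ h4
    · intro hp; exact ⟨1, rfl, by simpa using hp⟩
  have hc : Fintype.card Ω = Fintype.card (G ⧸ H) := by
    rw [← Nat.card_eq_fintype_card, ← hidx, Subgroup.index, Nat.card_eq_fintype_card]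
  have h0 : 2 ≤ (univ.filter fun p => I p ((1 : G) : G ⧸ H)).card := by
    obtain ⟨x, hx⟩ := hfix a
    refine Finset.one_lt_card.2 ⟨x • a, ?_, a, ?_, hx⟩
    · simp only [mem_filter, mem_univ, true_and, hb]; exact mem_orbit a x
    · simp only [mem_filter, mem_univ, true_and, hb]; exact mem_orbit_self a
  have hv : (univ.filter fun p => I p ((1 : G) : G ⧸ H)).card + 1 < Fintype.card Ω := by
    have h3 := Finset.card_filter_add_card_filter_not (s := (univ : Finset Ω))
      (fun p => I p ((1 : G) : G ⧸ H))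
    rw [card_univ] at h3
    obtain ⟨c, hc⟩ : ∃ c, c ∉ orbit H a := by
      by_contra h4
      push Not at h4
      exact hnt ((isPretransitive_iff_orbit_eq_univ a).2 (Set.eq_univ_of_forall h4))
    obtain ⟨x, hx⟩ := hfix c
    have : 1 < (univ.filter fun p => ¬ I p ((1 : G) : G ⧸ H)).card := by
      refine Finset.one_lt_card.2 ⟨x • c, ?_, c, ?_, hx⟩
      · simp only [mem_filter, mem_univ, true_and, hb]
        intro h4
        exact hc ((orbit_eq_iff.2 h4) ▸ mem_orbit_smul x c)
      · simp only [mem_filter, mem_univ, true_and, hb]; exact hc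
    omega
  obtain ⟨l, S, hl⟩ := sd_of_action hI h2 hc _ rfl h0 hv
  haveI : Nontrivial Ω := Fintype.one_lt_card_iff_nontrivial.1 (by omega)
  have h2' := S.two_trans hI h2
  haveI := S.faithful hI
  have hne : Ax G I ((1 : G) : G ⧸ H) ≠ ⊥ := by
    intro e
    have : (h : G) ∈ Ax G I ((1 : G) : G ⧸ H) := fun p hp => hh p ((hb p).1 hp)
    rw [e] at this
    exact h1 (Subtype.ext this)
  obtain ⟨A, h3, h4, h5, h6⟩ := S.ito hI h2' h0 hl hv hne
  obtain ⟨x, hx⟩ := (Subgroup.ne_bot_iff_exists_ne_one).1 h4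
  obtain ⟨F, _, _, n, hn, h7, K, h8, h9, h10⟩ := onan h2' _ A
    (fun g hg => S.ax_fix hI (h3 hg)) h6 h5
    ⟨x, x.2, fun e => hx (Subtype.ext e), S.exists_fixed hI h0 (h3 x.2)⟩
  obtain ⟨m, rfl⟩ : ∃ m, n = m + 1 := ⟨n - 1, by omega⟩
  refine ⟨m, F, inferInstance, inferInstance, by omega, ?_, K, h8, h10, h9⟩
  rw [← hidx, Subgroup.index, h7, Projectivization.card'', Nat.card_fun]
  simp

end Cfsg.Agent.PG
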